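import Cfsg.Agent.DCS.Defs
import Cfsg.Agent.Solv.CoprimeGen

/-! Tower DCS (S4162): the core of the normality of the Sylow 7-subgroup. -/

set_option autoImplicit false
set_option linter.unusedSectionVars false

namespace Cfsg.Lib.DCS

open Subgroup Cfsg.Lib.Solv

universe u

namespace D7b

theorem avg {V X : Type*} [CommGroup V] [Group X] [Finite X] (φ : X →* MulAut V) (B : Subgroup V)
    (v : V) (h : ∀ a, φ a v * v⁻¹ ∈ B) :
    ∃ u, (∀ a, φ a u = u) ∧ u * (v ^ Nat.card X)⁻¹ ∈ B := by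
  have := Fintype.ofFinite X
  refine ⟨∏ a, φ a v, fun b => ?_, ?_⟩
  · rw [map_prod]
    exact Fintype.prod_equiv (Equiv.mulLeft b) _ _ fun a => by simp
  · rw [Nat.card_eq_fintype_card, ← Finset.card_univ, ← Finset.prod_const, ← Finset.prod_inv_distrib,
      ← Finset.prod_mul_distrib]
    exact prod_mem fun a _ => h a

variable {K : Type*} [Group K] [Finite K] {A B : Subgroup K} {a : K}

theorem root (h7 : a ^ 7 = 1) {i : ℕ} (hi : ¬ 7 ∣ i) : ∃ m, (a ^ i) ^ m = a :=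
  exists_pow_eq_self_of_coprime (((Nat.Prime.coprime_iff_not_dvd (by norm_num)).2
    hi).symm.coprime_dvd_right (orderOf_dvd_of_pow_eq_one h7))

theorem pw (h7 : a ^ 7 = 1) (hn : a ∉ B) {i : ℕ} (hi : a ^ i ∈ B) : a ^ i = 1 := by
  by_cases h : 7 ∣ i
  · obtain ⟨j, rfl⟩ := h
    rw [pow_mul, h7, one_pow]
  · obtain ⟨m, hm⟩ := root h7 h
    exact absurd (hm ▸ pow_mem hi m) hn

/-- Maschke: a generator of `A` modulo `B` fixed by all elements fixing it modulo `B`. -/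
theorem exists_gen [A.Normal] (hA : IsElementaryAbelian 7 A)
    (h7 : ¬ 7 ∣ (centralizer (A : Set K)).index) (hBA : B ≤ A) (ha : a ∈ A) (hn : a ∉ B)
    (gen : ∀ x ∈ A, ∃ b ∈ B, ∃ i : ℕ, x = b * a ^ i) :
    ∃ a ∈ A, a ∉ B ∧ (∀ x ∈ A, ∃ b ∈ B, ∃ i : ℕ, x = b * a ^ i) ∧
      ∀ h ∈ normalizer (B : Set K), ∀ c ∈ B, h * a * h⁻¹ = c * a → h * a * h⁻¹ = a := by
  have := hA.1
  have hc : ∀ {x y}, x ∈ A → y ∈ A → Commute x y := fun hx hy => setLike_mul_comm hx hy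
  let J : Subgroup K :=
    { carrier := {j | j ∈ normalizer (B : Set K) ∧ j * a * j⁻¹ * a⁻¹ ∈ B}
      one_mem' := ⟨one_mem _, by simp⟩
      mul_mem' := fun {j k} hj hk => ⟨mul_mem hj.1 hk.1, by
        convert mul_mem ((mem_normalizer_iff.1 hj.1 _).1 hk.2) hj.2 using 1
        group⟩
      inv_mem' := fun {j} hj => ⟨inv_mem hj.1, by
        convert (mem_normalizer_iff.1 (inv_mem hj.1) _).1 (inv_mem hj.2) using 1
        group⟩ }
  let φ : K →* MulAut A := MulAut.conjNormal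
  have hn7 : ¬ 7 ∣ Nat.card (J.map φ) := fun e => h7 (by
    have e2 : φ.ker = centralizer (A : Set K) := by
      ext g
      simp [φ, MulEquiv.ext_iff, mem_centralizer_iff, Subtype.ext_iff, mul_inv_eq_iff_eq_mul,
        eq_comm (b := g * _)]
    rw [← e2, index_ker]
    exact e.trans (card_dvd_of_le (map_le_range φ J)))
  open scoped IsMulCommutative in
  obtain ⟨u, h1, h2⟩ := avg (J.map φ).subtype (B.subgroupOf A) ⟨a, ha⟩ (by
    rintro ⟨_, j, hj, rfl⟩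
    exact hj.2)
  replace h2 : u.1 * (a ^ Nat.card (J.map φ))⁻¹ ∈ B := h2
  obtain ⟨m, hm⟩ := root (hA.2 a ha) hn7
  obtain ⟨b, hb, e⟩ : ∃ b ∈ B, a = b * u.1 ^ m := ⟨_, inv_mem (pow_mem h2 m), by
    rw [(hc u.2 (inv_mem (pow_mem ha _))).mul_pow, inv_pow, hm]; group⟩
  refine ⟨u, u.2, fun hu => hn (e ▸ mul_mem hb (pow_mem hu m)), fun x hx => ?_, fun h hh c hc' e' => ?_⟩
  · obtain ⟨c, hc', i, rfl⟩ := gen x hx
    exact ⟨_, mul_mem hc' (pow_mem hb i), m * i, by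
      rw [e, (hc (hBA hb) (pow_mem u.2 m)).mul_pow, pow_mul, mul_assoc]⟩
  · have hJ : h ∈ J := ⟨hh, by
      have : h * a * h⁻¹ * a⁻¹ = h * b * h⁻¹ * (c ^ m * (u ^ m * (b * u ^ m)⁻¹)) := by
        rw [← mul_assoc (c ^ m), ← (hc (hBA hc') u.2).mul_pow, ← e', conj_pow, ← e, e]; group
      rw [this, ((hc (hBA hb) (pow_mem u.2 m))).eq, mul_inv_rev, ← (hc (inv_mem (pow_mem u.2 m))
        (inv_mem (hBA hb))).eq, mul_inv_cancel_left]
      exact mul_mem ((mem_normalizer_iff.1 hh _).1 hb) (mul_mem (pow_mem hc' m) (inv_mem hb))⟩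
    exact congrArg Subtype.val (h1 ⟨_, h, hJ, rfl⟩)

theorem core (h1 : WT1.{u}) {K : Type u} [Group K] [Finite K] (hr : Rat K) {A B : Subgroup K}
    [A.Normal] (hA : IsElementaryAbelian 7 A) (h7 : ¬ 7 ∣ (centralizer (A : Set K)).index)
    (hBA : B ≤ A) {a : K} (ha : a ∈ A) (hn : a ∉ B)
    (gen : ∀ x ∈ A, ∃ b ∈ B, ∃ i : ℕ, x = b * a ^ i) :
    ∃ a ∈ A, a ∉ B ∧ ∃ b ∈ B, b ≠ 1 ∧ ∀ h ∈ normalizer (B : Set K), h * b * h⁻¹ = b ^ 3 →
      ∃ n : ℕ, ∃ c ∈ B, h ^ n * a * (h ^ n)⁻¹ = c * a ^ 3 := by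
  have := hA.1
  have : Fact (Nat.Prime 7) := ⟨by norm_num⟩
  obtain ⟨a, ha, hn, gen, fix⟩ := exists_gen hA h7 hBA ha hn gen
  have a1 : a ≠ 1 := fun e => hn (e ▸ one_mem B)
  have a7 := hA.2 a ha
  obtain ⟨u, hu, hz⟩ : ∃ u ∈ A ⊓ centralizer (centralizer {a} : Subgroup K), u ∉ zpowers a := by
    by_contra! e
    obtain ⟨h, hh⟩ := isConj_iff.1 (hr a 3 (by rw [orderOf_eq_prime a7 a1]; norm_num))
    refine absurd (h1 7 hr.real A hA (centralizer {a})
      (fun d => h7 (d.trans (relIndex_dvd_index_of_normal _ _))) h (mem_normalizer_fintype fun j hj => ?_)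
      a ha a1 (le_antisymm e (zpowers_le.2 ⟨ha, fun j hj => (mem_cent.1 hj).symm⟩)) 3 hh) (by decide)
    have : Commute (a ^ 3) (h * j * h⁻¹) := by
      rw [← hh]
      exact (Commute.conj_iff h).2 (mem_cent.1 hj)
    have := this.pow_left 5
    rw [← pow_mul, show 3 * 5 = 7 * 2 + 1 from rfl, pow_succ, pow_mul, a7, one_pow, one_mul] at this
    exact mem_cent.2 this
  obtain ⟨b, hb, i, rfl⟩ := gen u hu.1
  have b7 := hA.2 b (hBA hb)
  have b1 : b ≠ 1 := fun e => hz (by simp [e])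
  refine ⟨a, ha, hn, b, hb, b1, fun h hh e => ?_⟩
  obtain ⟨c, hc, k, ek⟩ := gen _ (‹A.Normal›.conj_mem a ha h)
  have R : ∀ n, ∃ c ∈ B, h ^ n * a * (h ^ n)⁻¹ = c * a ^ k ^ n := fun n => by
    induction n with
    | zero => exact ⟨1, one_mem _, by simp⟩
    | succ n ih =>
      obtain ⟨d, hd, ed⟩ := ih
      refine ⟨_, mul_mem ((mem_normalizer_iff.1 hh _).1 hd) (pow_mem hc (k ^ n)), ?_⟩
      rw [pow_succ' h, pow_succ' k, pow_mul, mul_assoc _ (c ^ k ^ n),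
        ← Commute.mul_pow (setLike_mul_comm (hBA hc) (pow_mem ha k)), ← ek, conj_pow, conj_mul, ← ed]
      group
  have S : ∀ n, h ^ n * b * (h ^ n)⁻¹ = b ^ 3 ^ n := fun n => by
    induction n with
    | zero => simp
    | succ n ih => rw [pow_succ' h, pow_succ' 3, pow_mul, ← e, conj_pow, ← ih]; group
  have T : ∀ n m, k ^ n % 7 = m → ∃ c ∈ B, h ^ n * a * (h ^ n)⁻¹ = c * a ^ m := fun n m e => by
    rw [← e, ← pow_eq_pow_mod _ a7]
    exact R n
  have U : ∀ n, k ^ n % 7 = 1 → 3 ^ n % 7 = 1 := fun n e => by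
    obtain ⟨d, hd, ed⟩ := T n 1 e
    have h2 := mul_inv_eq_iff_eq_mul.1 (fix _ (pow_mem hh n) d hd (by rw [ed, pow_one]))
    have h3 : Commute (h ^ n) (b * a ^ i) := hu.2 _ (mem_cent.2 h2.symm)
    have h4 := h3.mul_right ((Commute.pow_right h2 i).inv_right)
    have h5 := S n
    rw [mul_inv_cancel_right] at h4
    rw [h4.eq, mul_inv_cancel_right, eq_comm, ← pow_one b, ← pow_mul, pow_eq_pow_iff_modEq,
      orderOf_eq_prime b7 b1, one_mul] at h5
    exact h5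
  have h6 := Nat.mod_lt k (show 0 < 7 by norm_num)
  simp only [Nat.pow_mod k] at T U
  generalize k % 7 = j at T U h6
  interval_cases j
  · obtain ⟨d, hd, ed⟩ := T 1 0 rfl
    rw [pow_one, pow_zero, mul_one] at ed
    exact absurd ((mem_normalizer_iff.1 hh _).2 (ed ▸ hd)) hn
  exacts [absurd (U 1 rfl) (by decide), absurd (U 3 rfl) (by decide), ⟨1, T 1 3 rfl⟩,
    absurd (U 3 rfl) (by decide), ⟨5, T 5 3 rfl⟩, absurd (U 2 rfl) (by decide)]

end D7b

open D7b in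
theorem wD7b (h1 : WT1.{u}) (hc : WD7c.{u}) : WD7b.{u} := by
  intro G _ _ hr hP W H A _ r hp r7 hW W0 hWH hA AH HA h7 hfix
  have := hA.1
  have := hW.1
  have := Fact.mk hp
  have p7 : Nat.Prime 7 := by norm_num
  have : Fact (Nat.Prime 7) := ⟨p7⟩
  have : ElemAb r W := .of_isElementaryAbelian hW
  have : ElemAb 7 A := .of_isElementaryAbelian hA
  have cop : Nat.Coprime 7 r := (Nat.coprime_primes p7 hp).2 r7.symm
  obtain ⟨m, hm⟩ := IsPGroup.iff_card.1 (ElemAb.isPGroup r W)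
  obtain ⟨n, hn⟩ := IsPGroup.iff_card.1 (ElemAb.isPGroup 7 A)
  have r5 : r = 2 ∨ r = 3 ∨ r = 5 := by
    have := hP r hp (((ElemAb.isPGroup r W).card_eq_or_dvd.resolve_left (mt card_eq_one.1 W0)).trans
      (card_subgroup_dvd_card W))
    interval_cases r <;> first | omega | exact absurd hp (by norm_num)
  have nW : ∀ X : Subgroup G, X ≤ normalizer (W : Set G) := fun X => le_normalizer_of_normal
  obtain ⟨B, BA, ⟨a, ha, hB⟩, B0⟩ : ∃ B ≤ A, (∃ a ∈ A, B ⊔ zpowers a = A) ∧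
      ¬ W ⊓ centralizer (B : Set G) ≤ ⊥ := by
    by_contra! e
    exact W0 (le_bot_iff.1 (Coprime.le_of_forall_cocyclic (nW A)
      (hm ▸ hn ▸ (cop.pow_left n).pow_right m) e))
  have gen : ∀ x ∈ A, ∃ b ∈ B, ∃ i : ℕ, x = b * a ^ i := fun x hx => by
    obtain ⟨b, hb, z, hz, rfl⟩ := (Coprime.mem_sup_iff ((zpowers_le.2 ha).trans
      (Coprime.le_normalizer_of_le_of_comm BA))).1 (hB ▸ hx)
    obtain ⟨i, rfl⟩ := mem_powers_iff_mem_zpowers.2 hz
    exact ⟨b, hb, i, rfl⟩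
  have st : ∀ w ∈ W ⊓ centralizer (B : Set G), w ≠ 1 → ∀ x ∈ A, w * x = x * w → x ∈ B :=
    fun w hw w1 x hx e => by
    have le : B ≤ centralizer {w} := fun b hb => mem_cent.2 (hw.2 b hb).symm
    have na : a ∉ centralizer {w} := fun e => w1 (hfix.le ⟨hw.1, fun y hy =>
      (mem_cent.1 ((hB.ge.trans (sup_le le (zpowers_le.2 e))) hy)).symm⟩)
    obtain ⟨b, hb, i, rfl⟩ := gen x hx
    rwa [pw (hA.2 a ha) na ((mul_mem_cancel_left (le hb)).1 (mem_cent.2 e)), mul_one]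
  obtain ⟨w0, hw0, w1⟩ : ∃ w ∈ W ⊓ centralizer (B : Set G), w ≠ 1 := by
    by_contra! e
    exact B0 e
  have aB : a ∉ B := fun e => w1 (hfix.le ⟨hw0.1, by
    rw [← hB, sup_of_le_left (zpowers_le.2 e)]; exact hw0.2⟩)
  have : (A.subgroupOf H).Normal := normal_subgroupOf_of_le_normalizer HA
  obtain ⟨a, ha, aB, b, hb, b1, key⟩ := core h1 (hr.of_surjective
    (hWH.symm.QuotientMulEquiv.toMonoidHom.comp (QuotientGroup.mk' W))
    (hWH.symm.QuotientMulEquiv.surjective.comp (QuotientGroup.mk'_surjective W)))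
    (A := A.subgroupOf H) (B := B.subgroupOf H)
    ⟨inferInstance, fun x hx => Subtype.ext (hA.2 x hx)⟩ (by
      rwa [show centralizer (A.subgroupOf H : Set H) = (centralizer (A : Set G)).subgroupOf H from
        ext fun x => ⟨fun e y hy => congrArg Subtype.val (e ⟨y, AH hy⟩ hy),
          fun e y hy => Subtype.ext (e y hy)⟩])
    (comap_mono BA) (a := ⟨a, AH ha⟩) ha aB fun x hx =>
      let ⟨b, hb, i, e⟩ := gen x hx
      ⟨⟨b, AH (BA hb)⟩, hb, i, Subtype.ext e⟩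
  have nB := le_normalizer_inf_centralizer (nW _) (le_refl (normalizer (B : Set G)))
  have aN : a.1 ∈ normalizer (B : Set G) := Coprime.le_normalizer_of_le_of_comm BA ha
  have : ElemAb r (W ⊓ centralizer (B : Set G) : Subgroup G) := ElemAb.of_le inf_le_left
  have : Nontrivial (W ⊓ centralizer (B : Set G) : Subgroup G) :=
    ⟨⟨w0, hw0⟩, 1, fun e => w1 (congrArg Subtype.val e)⟩
  let σ := Vec.rep r (conjAutOf _ _ nB)
  have main : ∀ w ∈ W ⊓ centralizer (B : Set G), w ≠ 1 → ∃ g : normalizer (B : Set G),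
      g * w * g.1⁻¹ = w ∧ σ g * σ ⟨a, aN⟩ = σ ⟨a, aN⟩ ^ 3 * σ g := fun w hw w1 => by
    have o7 : orderOf b.1 = 7 := orderOf_eq_prime (hA.2 _ (BA hb)) fun e => b1 (Subtype.ext e)
    obtain ⟨y, y1, y2⟩ := hr.mix (hw.2 b hb).symm (k := 3)
      (o7 ▸ cop.symm.coprime_dvd_left (orderOf_dvd_of_pow_eq_one (hW.2 w hw.1))) (by rw [o7]; norm_num)
    obtain ⟨⟨v, h⟩, rfl⟩ := (hWH.existsUnique y).exists
    have hw' : Commute h.1 w := by
      simpa using ((Commute.inv_left (setLike_mul_comm v.2 hw.1)).mul_left y1 :)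
    have hN : h.1 ∈ normalizer (B : Set G) := mem_normalizer_fintype fun x hx =>
      st w hw w1 _ ((mem_normalizer_iff.1 (HA h.2) _).1 (BA hx))
        ((hw'.symm.mul_right (hw.2 x hx).symm).mul_right hw'.symm.inv_right)
    obtain ⟨n, c, hc, e⟩ := key ⟨h.1, h.2⟩ (mem_normalizer_fintype fun x hx =>
      (mem_normalizer_iff.1 hN _).1 hx) (by
        rw [← mul_inv_eq_one]
        refine Subtype.ext (disjoint_def.1 hWH.disjoint ?_ (SetLike.coe_mem _))
        convert mul_mem (inv_mem v.2) (‹W.Normal›.conj_mem _ v.2 (b.1 ^ 3)) using 1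
        simp only [coe_mul, coe_inv, coe_pow, ← y2]
        group)
    have cN : c.1 ∈ normalizer (B : Set G) := le_normalizer hc
    refine ⟨⟨h.1, hN⟩ ^ n, mul_inv_eq_iff_eq_mul.2 (hw'.pow_left n).eq, ?_⟩
    have e1 : σ ⟨c, cN⟩ = 1 := by
      rw [← MonoidHom.mem_ker, Vec.rep_ker, mem_ker_conjAutOf]
      exact fun x hx => (hx.2 _ hc).symm
    rw [← one_mul (_ ^ 3), ← e1, ← map_pow, ← map_mul, ← map_mul, ← map_mul]
    exact congrArg σ (Subtype.ext (mul_inv_eq_iff_eq_mul.1 (congrArg Subtype.val e)))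
  have := hc r r5 σ ⟨a, aN⟩ (by
      rw [← map_pow, ← map_one σ]
      exact congrArg σ (Subtype.ext (hA.2 _ ha)))
    (fun w e => by_contra fun w1 => aB (st _ (Vec.toMul w).2 (fun e => w1 (Subtype.ext e)) _ ha
      (mul_inv_eq_iff_eq_mul.1 (congrArg Subtype.val e)).symm)) fun w => by
      by_cases e : w = 0
      · obtain ⟨g, -, e'⟩ := main w0 hw0 w1
        exact ⟨g, by rw [e, map_zero], e'⟩
      · obtain ⟨g, e1, e2⟩ := main _ (Vec.toMul w).2 fun e' => e (Subtype.ext e')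
        exact ⟨g, Subtype.ext e1, e2⟩
  rcases this with e | e <;>
    exact absurd (hP _ (by norm_num) (e.trans (card_subgroup_dvd_card _))) (by norm_num)

end Cfsg.Lib.DCS
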