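import Cfsg.Agent.DCS.Defs
import Cfsg.Agent.TIW.Count
import Cfsg.Agent.Solv.CardModEq
import Cfsg.Agent.Solv.CoprimeFixed
import Cfsg.Agent.Solv.MinNormal
import Cfsg.Agent.Trans.SylowIn
import Cfsg.Agent.Char.ElemParts

/-! Tower DCS: centralizer orders exactly divisible by 5 are at least 80. -/

set_option autoImplicit false

namespace Cfsg.Lib.DCS

open Subgroup Cfsg.Lib.Trans Cfsg.Lib.Solv

universe u

namespace Five

variable {G : Type*} [Group G] [Finite G]

local instance fact5 : Fact (Nat.Prime 5) := ⟨Nat.prime_five⟩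

theorem pz {u : G} (hu : orderOf u = 5) : IsPGroup 5 (zpowers u) :=
  IsPGroup.of_card (n := 1) (by rw [Nat.card_zpowers, hu, pow_one])

theorem eq_or_dvd {P : Subgroup G} {u : G} (hP : IsPGroup 5 P) (hu : orderOf u = 5) (h : u ∈ P) :
    P = zpowers u ∨ 25 ∣ Nat.card P := by
  obtain ⟨n, hn⟩ := IsPGroup.iff_card.1 hP
  rcases le_or_gt n 1 with e | e
  · exact Or.inl (eq_of_le_of_card_ge (zpowers_le.2 h) (by
      rw [hn, Nat.card_zpowers, hu]; exact Nat.pow_le_pow_right (by omega) e)).symm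
  · exact Or.inr (hn ▸ pow_dvd_pow 5 e)

theorem exists_P {H : Subgroup G} {u : G} (hu : orderOf u = 5) (h : u ∈ H) (h25 : 25 ∣ Nat.card H) :
    ∃ P ≤ H ⊓ centralizer {u}, IsPGroup 5 P ∧ 25 ∣ Nat.card P := by
  obtain ⟨T, hT, hu'⟩ := exists_isSylowIn_ge (pz hu) (zpowers_le.2 h)
  have h1 : 25 ∣ Nat.card T := by
    rw [← card_mul_relIndex hT.le] at h25
    exact (Nat.Coprime.pow_left 2 ((Nat.Prime.coprime_iff_not_dvd Nat.prime_five).2
      hT.not_dvd)).dvd_of_dvd_mul_right h25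
  refine ⟨T ⊓ centralizer {u}, inf_le_inf_right _ hT.le, hT.isPGroup.to_inf_left, ?_⟩
  refine (eq_or_dvd hT.isPGroup.to_inf_left hu ⟨hu' (mem_zpowers u), mem_cent.2 rfl⟩).elim
    (fun e => ?_) id
  have h2 := inf_centralizer_ne_bot_of_dvd_card hT.isPGroup le_normalizer
    ((by norm_num : 5 ∣ 25).trans h1)
  have h3 : T ⊓ centralizer (T : Set G) ≤ zpowers u :=
    e ▸ inf_le_inf_left _ (centralizer_le (Set.singleton_subset_iff.2 (hu' (mem_zpowers u))))
  have h4 : T ⊓ centralizer (T : Set G) = zpowers u := eq_of_le_of_card_ge h3 (by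
    have := card_dvd_of_le h3
    rw [Nat.card_zpowers, hu] at *
    exact (((Nat.dvd_prime Nat.prime_five).1 this).resolve_left (by rwa [card_eq_one])).ge)
  rwa [inf_of_le_left fun t ht => mem_cent.2 ((h4.ge (mem_zpowers u)).2 t ht).symm]

theorem core {M P : Subgroup G} {g : G} {r : ℕ} [Fact r.Prime] (hr : r = 2 ∨ r = 3)
    (hM : IsPGroup r M) (hc : ∀ a ∈ M, ∀ b ∈ M, a * b = b * a) (hg : g ∈ normalizer (M : Set G))
    (hP : IsPGroup 5 P) (hn : P ≤ normalizer (M : Set G)) (hX : ∀ p ∈ P, g⁻¹ * (p * g * p⁻¹) ∈ M)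
    (h16 : Nat.card ↥(M ⊓ centralizer {g}) < 16) : ∃ t, IsConj t g ∧ P ≤ centralizer {t} := by
  obtain ⟨n, hMn⟩ := IsPGroup.iff_card.1 hM
  have h5 : (Nat.card M).Coprime 5 := by
    rw [hMn]; exact Nat.Coprime.pow_left _ (by rcases hr with rfl | rfl <;> norm_num)
  obtain ⟨_, ⟨w, hw, rfl⟩, ht⟩ : {x ∈ (g * ·) '' (M : Set G) | ∀ r ∈ P, r * x = x * r}.Nonempty := by
    have := TIW.ncard_modEq_cent Nat.prime_five hP (X := (g * ·) '' (M : Set G)) (by
      rintro p hp _ ⟨m, hm, rfl⟩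
      exact ⟨_, mul_mem (hX p hp) (le_normalizer_iff.1 hn p hp m hm), by group⟩)
    rw [Set.ncard_image_of_injective _ (mul_right_injective g), ← Nat.card_coe_set_eq] at this
    refine Set.nonempty_of_ncard_ne_zero fun e => ?_
    rw [e] at this
    exact absurd (h5.symm.eq_one_of_dvd (Nat.modEq_zero_iff_dvd.1 this)) (by norm_num)
  replace ht : ∀ r ∈ P, r * (g * w) = g * w * r := ht
  have hg' : ∀ m ∈ M, g⁻¹ * m * g ∈ M := fun m hm => (mem_normalizer_iff''.1 hg m).1 hm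
  let φ : M →* G := MonoidHom.mk' (fun m => g⁻¹ * m * g * (m : G)⁻¹) fun a b => by
    have := hc _ (inv_mem a.2) _ (mul_mem (hg' b b.2) (inv_mem b.2))
    rw [mul_assoc _ (a : G)⁻¹, this, coe_mul]; group
  have e1 : ∀ m ∈ M, ∀ c ∈ M, m * (g * c) * m⁻¹ = g * c * (g⁻¹ * m * g * m⁻¹) := fun m hm c h => by
    rw [mul_assoc g, ← mul_assoc c, hc c h _ (hg' m hm)]; group
  have hK : φ.range ≤ M := by
    rintro _ ⟨m, rfl⟩; exact mul_mem (hg' m m.2) (inv_mem m.2)
  have hKn : P ≤ normalizer (φ.range : Set G) := le_normalizer_iff.2 (by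
    rintro p hp _ ⟨m, rfl⟩
    have h1 := le_normalizer_iff.1 hn p hp m m.2
    refine ⟨⟨_, h1⟩, mul_left_cancel (a := g * w) ?_⟩
    change _ * (g⁻¹ * (p * m * p⁻¹) * g * (p * m * p⁻¹)⁻¹) = _ * (p * (g⁻¹ * m * g * (m : G)⁻¹) * p⁻¹)
    rw [← e1 _ h1 w hw, ← mul_assoc (g * w), ← mul_assoc (g * w), ← ht p hp, mul_assoc p (g * w),
      ← e1 _ m.2 w hw]
    nth_rw 1 [← mul_inv_eq_iff_eq_mul.2 (ht p hp)]
    group)
  have hCn : P ≤ normalizer ((M ⊓ centralizer (P : Set G) : Subgroup G) : Set G) :=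
    le_normalizer_iff.2 fun p hp k hk => by rwa [hk.2 p hp, mul_inv_cancel_right]
  set D := (M ⊓ centralizer (P : Set G)) ⊔ φ.range with hD
  have hDM : D ≤ M := sup_le inf_le_left hK
  have h1 := card_modEq_card_inf_centralizer hP hn
  have h2 := card_modEq_card_inf_centralizer (L := D) hP
    ((le_inf hCn hKn).trans (normalizer_inf_normalizer_le_normalizer_sup _ _))
  rw [le_antisymm (inf_le_inf_right _ hDM) (le_inf le_sup_left inf_le_right)] at h2
  have h3 := card_mul_relIndex hDM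
  have h4 : D.relIndex M ≡ 1 [MOD 5] := Nat.ModEq.cancel_left_of_coprime
    (Nat.Coprime.coprime_dvd_left (card_dvd_of_le hDM) h5).symm
    (by rw [h3, mul_one]; exact h1.trans h2.symm)
  have h6 : φ.range.relIndex M = Nat.card ↥(M ⊓ centralizer {g}) := by
    have : φ.ker = (centralizer {g}).subgroupOf M := by
      ext m
      rw [mem_subgroupOf, mem_cent, MonoidHom.mem_ker]
      change g⁻¹ * m * g * (m : G)⁻¹ = 1 ↔ _
      rw [mul_inv_eq_one, mul_assoc, inv_mul_eq_iff_eq_mul, eq_comm]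
    refine Nat.eq_of_mul_eq_mul_left (Nat.card_pos (α := φ.range)) ?_
    rw [card_mul_relIndex hK, ← index_ker, this, inf_comm]
    exact (relIndex_mul_card_inf _ _).symm
  have h7 : D.relIndex M < 16 := (Nat.le_of_dvd (h6 ▸ Nat.card_pos)
    (relIndex_dvd_of_le_left M le_sup_right)).trans_lt (h6 ▸ h16)
  obtain ⟨i, -, hi⟩ := (Nat.dvd_prime_pow Fact.out).1 (hMn ▸ Dvd.intro_left _ h3)
  have h8 : D.relIndex M = 1 := by
    rw [hi] at h4 h7 ⊢
    have : i < 4 := (Nat.pow_lt_pow_iff_right one_lt_two).1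
      ((Nat.pow_le_pow_left (Fact.out : r.Prime).two_le i).trans_lt h7)
    rcases hr with rfl | rfl <;> interval_cases i <;> first | rfl | exact absurd h4 (by decide)
  have h9 : w⁻¹ ∈ (D : Set G) := relIndex_eq_one.1 h8 (inv_mem hw)
  rw [hD, coe_mul_of_left_le_normalizer_right _ _ (le_normalizer_iff.2 fun a ha k hk => by
    rwa [hc a ha.1 k (hK hk), mul_inv_cancel_right])] at h9
  obtain ⟨c, h10, _, ⟨m, rfl⟩, e⟩ := h9
  refine ⟨g * (w * c), isConj_iff.2 ⟨m, ?_⟩, fun p hp => mem_cent.2 ?_⟩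
  · rw [e1 m m.2 _ (mul_mem hw h10.1), mul_assoc, mul_assoc]
    exact mul_eq_left.2 (mul_eq_one_iff_eq_inv'.2 e)
  · rw [← mul_assoc g, mul_assoc, ← h10.2 p hp, ← mul_assoc, ← ht p hp, mul_assoc]

theorem cent_le {g u : G} (hc : g * u = u * g) (h : ¬ 5 ∣ orderOf g) (hu : orderOf u = 5) :
    centralizer {g * u} ≤ centralizer ({g} : Set G) := fun y hy => by
  obtain ⟨k, hk⟩ := (Char.Parts.mem_zpowers_mul_of_coprime hc
    (hu ▸ ((Nat.Prime.coprime_iff_not_dvd Nat.prime_five).2 h).symm)).1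
  rw [← hk]
  exact mem_cent.2 (Commute.zpow_left (mem_cent.1 hy) k)

theorem main (h : WT1.{u}) (G : Type u) [Group G] [Finite G] : Group.IsSolvable G → Rat G →
    PrLe 5 G → ∀ g u : G, ¬ 5 ∣ orderOf g → orderOf u = 5 → g * u = u * g → ¬ 25 ∣ cz g →
    80 ≤ cz (g * u) := by
  refine card_induction (P := fun G _ _ => Group.IsSolvable G → Rat G → PrLe 5 G → ∀ g u : G,
    ¬ 5 ∣ orderOf g → orderOf u = 5 → g * u = u * g → ¬ 25 ∣ cz g → 80 ≤ cz (g * u)) ?_ G
  intro G _ _ ih hs hR hL g u hg hu hc h25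
  have hu1 : u ≠ 1 := fun e => by simp [e] at hu
  have : Nontrivial G := ⟨u, 1, hu1⟩
  obtain ⟨r, W, hr, hW, hA, hWr, hWp⟩ := exists_isMinNormal_elementary G
  have := hW.normal
  have := Fact.mk hr
  have hg' := ((Nat.Prime.coprime_iff_not_dvd Nat.prime_five).2 hg).symm
  have hz : centralizer (zpowers g : Set G) = centralizer {g} := by
    rw [zpowers_eq_closure, centralizer_closure]
  by_cases huW : u ∈ W
  · obtain rfl : 5 = r := (Nat.prime_dvd_prime_iff_eq Nat.prime_five hr).1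
      (hu ▸ orderOf_dvd_of_pow_eq_one (hWr u huW))
    obtain ⟨y, hy, e⟩ := hR.mix hc (hu ▸ hg') (k := 2) (by rw [hu]; norm_num)
    rcases eq_or_dvd (P := W ⊓ centralizer {g}) hWp.to_inf_left hu ⟨huW, mem_cent.2 hc⟩ with e' | e'
    · refine absurd (h 5 hR.real W ⟨hA, hWr⟩ (zpowers g) (fun hd => hg ?_) y
        (centralizer_le_normalizer _ (hz ▸ mem_cent.2 hy.symm)) u huW hu1 (hz ▸ e') 2 e) (by decide)
      exact Nat.card_zpowers g ▸ hd.trans (relIndex_dvd_card _ _)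
    · exact absurd (e'.trans (card_dvd_of_le inf_le_right)) h25
  have hπ := QuotientGroup.mk'_surjective W
  by_cases h1 : 25 ∣ cz (QuotientGroup.mk' W g)
  swap
  · refine (ih (G ⧸ W) ?_ inferInstance (hR.of_surjective _ hπ)
      (fun q hq e => hL q hq (e.trans (card_quotient_dvd_card W))) _ (QuotientGroup.mk' W u)
      (fun e => hg (e.trans (orderOf_map_dvd _ g))) ?_ (by rw [← map_mul, hc, map_mul]) h1).trans
      (map_mul (QuotientGroup.mk' W) g u ▸ cz_map_le _ hπ _)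
    · rw [card_eq_card_quotient_mul_card_subgroup W]
      exact lt_mul_of_one_lt_right Nat.card_pos ((one_lt_card_iff_ne_bot W).2 hW.ne_bot)
    · exact ((Nat.dvd_prime Nat.prime_five).1 (hu ▸ orderOf_map_dvd _ u)).resolve_left fun e =>
        huW ((QuotientGroup.eq_one_iff u).1 (orderOf_eq_one_iff.1 e))
  obtain ⟨n, hn⟩ := IsPGroup.iff_card.1 hWp
  by_cases h5 : r = 5
  · have := Coprime.map_mk'_centralizer (A := zpowers g) W
      (by rw [Nat.card_zpowers, hn, h5]; exact hg'.pow_right _) (Or.inl inferInstance)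
    rw [MonoidHom.map_zpowers, hz, zpowers_eq_closure, centralizer_closure] at this
    exact absurd (h1.trans (by rw [cz, ← this]; exact Subgroup.card_map_dvd _ _)) h25
  have hr' : r = 2 ∨ r = 3 := by
    have h2 : r ≤ 5 := hL r hr ((hWp.card_eq_or_dvd.resolve_left
      (by rw [card_eq_one]; exact hW.ne_bot)).trans (card_subgroup_dvd_card W))
    have := hr.two_le
    interval_cases r <;> simp_all (config := {decide := true})
  obtain ⟨P, hP, h2, h3⟩ := exists_P (H := (centralizer {QuotientGroup.mk' W g}).comap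
    (QuotientGroup.mk' W)) hu (mem_cent.2 (by rw [← map_mul, hc, map_mul]))
    (h1.trans (by
      nth_rw 1 [cz, ← map_comap_eq_self_of_surjective hπ (centralizer _)]; exact Subgroup.card_map_dvd _ _))
  have hN : centralizer {u} ≤ normalizer ((W ⊓ centralizer {u} : Subgroup G) : Set G) :=
    (le_inf le_normalizer_of_normal le_normalizer).trans inf_normalizer_le_normalizer_inf
  have hgu : g ∈ centralizer ({u} : Set G) := mem_cent.2 hc.symm
  by_cases h16 : Nat.card ↥(W ⊓ centralizer {u} ⊓ centralizer {g}) < 16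
  · obtain ⟨t, ht, h4⟩ := core hr' hWp.to_inf_left
      (fun a ha b hb => congrArg Subtype.val (hA.1.1 ⟨a, ha.1⟩ ⟨b, hb.1⟩)) (hN hgu) h2
      (fun p hp => hN (hP hp).2) (fun p hp => mem_inf.2 ⟨by
        have := mem_cent.1 (mem_comap.1 (hP hp).1)
        rw [← QuotientGroup.ker_mk' W, MonoidHom.mem_ker]
        simp only [map_mul, map_inv, ← this]; group,
        mul_mem (inv_mem hgu) (mul_mem (mul_mem (mem_inf.1 (hP hp)).2 hgu)
          (inv_mem (mem_inf.1 (hP hp)).2))⟩) h16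
    exact absurd (cz_of_isConj ht ▸ h3.trans (card_dvd_of_le h4)) h25
  · have h4 : W ⊓ centralizer {u} ⊓ centralizer {g} ≤ centralizer {g * u} := fun y hy =>
      mem_cent.2 (Commute.mul_left (mem_cent.1 hy.2) (mem_cent.1 hy.1.2))
    have h6 : (5 : ℕ).Coprime (Nat.card ↥(W ⊓ centralizer {u} ⊓ centralizer {g})) :=
      Nat.Coprime.coprime_dvd_right (card_dvd_of_le (inf_le_left.trans inf_le_left))
        (hn ▸ ((Nat.coprime_primes Nat.prime_five hr).2 (Ne.symm h5)).pow_right _)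
    have := Nat.le_of_dvd (cz_pos _) (h6.mul_dvd_of_dvd_of_dvd
      (hu ▸ orderOf_dvd_cz (by rw [← mul_assoc, ← hc])) (card_dvd_of_le h4))
    omega

end Five

open Five in
theorem wFive (h : WT1.{u}) : WFive.{u} := by
  intro G _ _ hs hR hL x h5 h25
  have := Fact.mk Nat.prime_five
  obtain ⟨u, hu, g, hg, rfl, hc, ⟨k, hk⟩, hg5⟩ :=
    Char.Parts.exists_pPart_mul_pPrimePart Nat.prime_five (isOfFinOrder_of_finite x)
  rcases k with _ | _ | k
  · obtain rfl : u = 1 := orderOf_eq_one_iff.1 hk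
    rw [one_mul] at *
    obtain ⟨⟨v, hv⟩, e⟩ := exists_prime_orderOf_dvd_card' 5 h5
    rw [orderOf_mk] at e
    exact (main h G hs hR hL g v hg5 e (mem_cent.1 hv) h25).trans
      (Subgroup.card_le_of_le (cent_le (mem_cent.1 hv) hg5 e))
  · rw [hc.eq] at h25 ⊢
    refine main h G hs hR hL g u hg5 hk hc.symm fun e => h25 ?_
    obtain ⟨P, hP, -, h3⟩ := exists_P hk (mem_cent.2 hc.symm) e
    exact h3.trans (card_dvd_of_le fun y hy =>
      mem_cent.2 (Commute.mul_left (mem_cent.1 (hP hy).1) (mem_cent.1 (hP hy).2)))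
  · exact absurd (((pow_dvd_pow 5 (by omega : 2 ≤ k + 1 + 1)).trans hk.symm.dvd).trans
      (orderOf_dvd_cz ((Commute.refl u).mul_left hc.symm))) h25

end Cfsg.Lib.DCS
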