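import Cfsg.Agent.DCS.Defs
import Cfsg.Agent.Solv.Cores
import Cfsg.Agent.GW.LiftC

/-! Tower DCS: a centralizer of order 4 in a group with a normal 2-complement. -/

set_option autoImplicit false
set_option linter.unusedSectionVars false

namespace Cfsg.Lib.DCS

open Subgroup

universe u

namespace FourA

variable {G : Type*} [Group G] [Finite G]

theorem inverts {A : Subgroup G} {t : G} (hn : ∀ a ∈ A, t * a * t⁻¹ ∈ A)
    (h2 : ∀ a ∈ A, t * t * a = a * (t * t)) (h1 : ∀ a ∈ A, t * a = a * t → a = 1) :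
    ∀ a ∈ A, t * a * t⁻¹ = a⁻¹ := fun a ha => by
  let f : A → A := fun c => ⟨c.1⁻¹ * (t * c * t⁻¹), mul_mem (inv_mem c.2) (hn _ c.2)⟩
  have hf : Function.Injective f := fun c d e => Subtype.ext (mul_inv_eq_one.1
    (h1 _ (mul_mem c.2 (inv_mem d.2)) (by
      have : c.1⁻¹ * (t * c * t⁻¹) = d.1⁻¹ * (t * d * t⁻¹) := congrArg Subtype.val e
      calc t * (c.1 * d.1⁻¹) = c.1 * (c.1⁻¹ * (t * c * t⁻¹)) * (t * d.1⁻¹) := by group
        _ = _ := by rw [this]; group)))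
  obtain ⟨c, hc⟩ := Finite.injective_iff_surjective.1 hf ⟨a, ha⟩
  obtain rfl : c.1⁻¹ * (t * c * t⁻¹) = a := congrArg Subtype.val hc
  calc t * (c.1⁻¹ * (t * c * t⁻¹)) * t⁻¹ = t * c.1⁻¹ * t⁻¹ * (t * t * c) * (t * t)⁻¹ := by group
    _ = _ := by rw [h2 _ c.2]; group

theorem comm_of_inv {A : Subgroup G} {t : G} (h : ∀ a ∈ A, t * a * t⁻¹ = a⁻¹) :
    ∀ a ∈ A, ∀ b ∈ A, a * b = b * a := fun a ha b hb => inv_injective (by
  rw [mul_inv_rev b, ← h _ (mul_mem ha hb), ← h a ha, ← h b hb]; group)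

theorem two_lt {K : Subgroup G} {y z : G} (hy : y ∈ K) (hz : z ∈ K) (y1 : y ≠ 1) (z1 : z ≠ 1)
    (h : y ≠ z) : 2 < Nat.card K := by
  have := Fintype.ofFinite K
  rw [Nat.card_eq_fintype_card]
  exact Fintype.two_lt_card_iff.2 ⟨1, ⟨y, hy⟩, ⟨z, hz⟩, fun e => y1 (congrArg Subtype.val e).symm,
    fun e => z1 (congrArg Subtype.val e).symm, fun e => h (congrArg Subtype.val e)⟩

theorem eight (h8 : Nat.card G = 8) {x y : G} (hxy : x * y ≠ y * x) : ∃ z : G, z ≠ 1 ∧
    (∀ s, s * z = z * s) ∧ (∀ s, s * s = 1 ∨ s * s = z) ∧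
    ∀ s t : G, s * t * s⁻¹ = t ∨ s * t * s⁻¹ = t * z := by
  have := Fact.mk Nat.prime_two
  have h1 : ¬ IsCyclic (G ⧸ center G) := fun _ =>
    hxy ((isMulCommutative_of_isCyclic_quotient_center_self (G := G)).1.1 x y)
  have : Nontrivial G := Finite.one_lt_card_iff_nontrivial.1 (by omega)
  have h2 := Finite.one_lt_card_iff_nontrivial.2
    (IsPGroup.of_card (p := 2) (n := 3) h8).center_nontrivial
  have h3 := (center G).index_mul_card
  have h4 : Nat.card (G ⧸ center G) = 2 ^ 2 ∧ Nat.card (center G) = 2 := by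
    have k1 : (center G).index ≠ 1 := fun e => h1 (isCyclic_of_card_dvd_prime (p := 2)
      (e.dvd.trans (one_dvd _)))
    have k2 : (center G).index ≠ 2 := fun e => h1 (isCyclic_of_prime_card (p := 2) e)
    rw [← index_eq_card]
    have : Nat.card (center G) ≤ 8 := h8 ▸ card_le_card_group _
    generalize Nat.card (center G) = c at *
    interval_cases c <;> omega
  obtain ⟨z, hz, h5⟩ := (Nat.card_eq_two_iff' (1 : center G)).1 h4.2
  have h6 : ∀ c ∈ center G, c = 1 ∨ c = z := fun c hc => or_iff_not_imp_left.2 fun e =>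
    congrArg Subtype.val (h5 ⟨c, hc⟩ fun k => e (congrArg Subtype.val k))
  refine ⟨z, fun e => hz (Subtype.ext e), mem_center_iff.1 z.2, fun s => h6 _ ?_, fun s t => ?_⟩
  · rw [← QuotientGroup.eq_one_iff, ← sq, QuotientGroup.mk_pow,
      ← (not_isCyclic_iff_exponent_eq_prime Nat.prime_two h4.1).1 h1, Monoid.pow_exponent_eq_one]
  · refine (h6 (t⁻¹ * (s * t * s⁻¹)) ?_).imp (fun e => (inv_mul_eq_one.1 e).symm)
      fun e => by rw [← e, mul_inv_cancel_left]
    rw [← QuotientGroup.eq, QuotientGroup.mk_mul, QuotientGroup.mk_mul, QuotientGroup.mk_inv,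
      (IsPGroup.isMulCommutative_of_card_eq_prime_sq h4.1).1.1 (s : G ⧸ center G),
      mul_inv_cancel_right]

/-- A normal subgroup of odd order with a complement of 2-power order. -/
structure Sp (O S : Subgroup G) : Prop where
  dc : DC G
  normal : O.Normal
  odd : Odd (Nat.card O)
  two : IsPGroup 2 S
  sup : O ⊔ S = ⊤

namespace Sp

variable {O S : Subgroup G} (h : Sp O S)
include h

theorem dec (g : G) : ∃ o ∈ O, ∃ s ∈ S, o * s = g := by
  have := h.normal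
  exact mem_sup_of_normal_left.1 (h.sup.ge (mem_top g))

theorem cop {o s : G} (ho : o ∈ O) (hs : s ∈ S) : (orderOf s).Coprime (orderOf o) := by
  have := Fact.mk Nat.prime_two
  obtain ⟨k, hk⟩ := IsPGroup.iff_orderOf.1 h.two ⟨s, hs⟩
  rw [orderOf_mk] at hk
  exact hk ▸ (Nat.coprime_two_left.2 (h.odd.of_dvd_nat (orderOf_dvd_natCard _ ho))).pow_left k

theorem one {g : G} (ho : g ∈ O) (hs : g ∈ S) : g = 1 :=
  orderOf_eq_one_iff.1 ((Nat.coprime_self _).1 (h.cop ho hs))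

theorem sq {g : G} (ho : g ∈ O) (e : g = g⁻¹) : g = 1 :=
  orderOf_eq_one_iff.1 (Nat.eq_one_of_dvd_coprimes (Nat.coprime_two_left.2 h.odd)
    (orderOf_dvd_of_pow_eq_one (by rw [pow_two, mul_eq_one_iff_eq_inv, ← e]))
    (orderOf_dvd_natCard _ ho))

theorem conj' {o s y y' : G} (ho : o ∈ O) (hs : s ∈ S) (hy : y ∈ S) (hy' : y' ∈ S)
    (e : o * s * y * (o * s)⁻¹ = y') : s * y * s⁻¹ = y' := by
  refine mul_inv_eq_one.1 (h.one ?_ (mul_mem (mul_mem (mul_mem hs hy) (inv_mem hs)) (inv_mem hy')))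
  rw [show s * y * s⁻¹ * y'⁻¹ = o⁻¹ * (y' * o * y'⁻¹) by rw [← e]; group]
  exact mul_mem (inv_mem ho) (h.normal.conj_mem o ho y')

theorem conj {y y' : G} (hy : y ∈ S) (hy' : y' ∈ S) (e : IsConj y y') :
    ∃ s ∈ S, s * y * s⁻¹ = y' := by
  obtain ⟨g, hg⟩ := isConj_iff.1 e
  obtain ⟨o, ho, s, hs, rfl⟩ := h.dec g
  exact ⟨s, hs, h.conj' ho hs hy hy' hg⟩

theorem cz_eq {y : G} (hy : y ∈ S) : cz y = Nat.card (O ⊓ centralizer {y} : Subgroup G) *
    Nat.card (S ⊓ centralizer {y} : Subgroup G) := by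
  rw [← Nat.card_prod]
  refine (Nat.card_eq_of_bijective (fun p => ⟨p.1.1 * p.2.1, mul_mem p.1.2.2 p.2.2.2⟩)
    ⟨fun p q e => ?_, fun g => ?_⟩).symm
  · have e : p.1.1 * p.2.1 = q.1.1 * q.2.1 := congrArg Subtype.val e
    have k : q.1.1⁻¹ * p.1.1 = 1 := h.one (mul_mem (inv_mem q.1.2.1) p.1.2.1) (by
      rw [show q.1.1⁻¹ * p.1.1 = q.2.1 * p.2.1⁻¹ by rw [eq_mul_inv_iff_mul_eq, mul_assoc, e]; group]
      exact mul_mem q.2.2.1 (inv_mem p.2.2.1))
    rw [inv_mul_eq_one] at k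
    exact Prod.ext (Subtype.ext k.symm) (Subtype.ext (mul_left_cancel (k ▸ e)))
  · obtain ⟨o, ho, s, hs, e⟩ := h.dec g
    have k : s ∈ centralizer ({y} : Set G) := mem_cent.2 (mul_inv_eq_iff_eq_mul.1
      (h.conj' ho hs hy hy (by rw [e, ← mem_cent.1 g.2, mul_inv_cancel_right]))).symm
    exact ⟨(⟨o, ho, (mul_mem_cancel_right k).1 (e ▸ g.2)⟩, ⟨s, hs, k⟩), Subtype.ext e⟩

theorem not_bot {z : G} (hz : z ≠ 1) (hc : ∀ s ∈ S, s * z = z * s) : O ≠ ⊥ := fun e =>
  hz (mem_bot.1 (h.dc.center_eq_bot.le (mem_center_iff.2 fun g =>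
    hc g (by simpa [e] using h.sup.ge (mem_top g)))))

theorem basic {x : G} (hx : x ∈ S) (h4 : cz x = 4) : (∀ a ∈ O, x * a = a * x → a = 1) ∧
    Nat.card (S ⊓ centralizer {x} : Subgroup G) = 4 := by
  have h1 := h.cz_eq hx
  have h2 := Nat.eq_one_of_dvd_coprimes ((Nat.coprime_two_left.2 h.odd).pow_left 2)
    (Dvd.intro _ (h1.symm.trans h4)) (card_dvd_of_le inf_le_left)
  rw [h2, one_mul, h4] at h1
  exact ⟨fun a ha e => mem_bot.1 ((card_eq_one.1 h2).le ⟨ha, mem_cent.2 e⟩), h1.symm⟩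

theorem four {x : G} (hx : x ∈ S) (h4 : cz x = 4) (hS : Nat.card S = 4) : False := by
  have := Fact.mk Nat.prime_two
  have hN := h.normal
  have := IsPGroup.isMulCommutative_of_card_eq_prime_sq (p := 2) hS
  have hc : ∀ s ∈ S, ∀ t ∈ S, s * t = t * s := fun s hs t ht => setLike_mul_comm hs ht
  have he : ∀ s ∈ S, ∀ t ∈ S, IsConj s t → s = t := fun s hs t ht e => by
    obtain ⟨g, hg, rfl⟩ := h.conj hs ht e
    rw [hc g hg s hs, mul_inv_cancel_right]
  have hx2 : x * x = 1 := mul_eq_one_iff_eq_inv.2 (he x hx _ (inv_mem hx) (h.dc.rat.real x))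
  have h1 := (h.basic hx h4).1
  have h2 := comm_of_inv (inverts (fun a ha => hN.conj_mem a ha x) (by simp [hx2]) h1)
  have h3 : O.index = 4 := by
    have k := h.cz_eq S.one_mem
    have e : centralizer ({1} : Set G) = ⊤ := eq_top_iff.2 fun g _ => mem_cent.2 (by simp)
    rw [cz_one, e, inf_top_eq, inf_top_eq, hS, ← O.card_mul_index] at k
    exact Nat.eq_of_mul_eq_mul_left Nat.card_pos k
  have key : ∀ t ∈ S, t ≠ 1 → t ≠ x → ∃ u ∈ O, u ≠ 1 ∧ t * u = u * t ∧ 2 * cz u = Nat.card G :=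
    fun t ht t1 tx => by
      have k := h.cz_eq ht
      rw [inf_eq_left.2 (show S ≤ _ from fun s hs => mem_cent.2 (hc t ht s hs)), hS] at k
      obtain ⟨u, hu, u1⟩ := (bot_or_exists_ne_one (O ⊓ centralizer {t})).resolve_left fun e =>
        tx (he t ht x hx (h.dc _ _ (by rw [k, e, card_bot, h4])))
      have k1 : O ≤ centralizer {u} := fun a ha => mem_cent.2 (h2 u hu.1 a ha)
      refine ⟨u, hu.1, u1, mem_cent.1 hu.2, ?_⟩
      have k2 := relIndex_mul_index k1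
      have k3 : O.relIndex (centralizer {u}) ≠ 1 := fun e =>
        t1 (h.one (relIndex_eq_one.1 e (mem_cent.2 (mem_cent.1 hu.2).symm)) ht)
      have k4 : (centralizer ({u} : Set G)).index ≠ 1 := fun e =>
        u1 (mem_bot.1 (h.dc.center_eq_bot.le (mem_center_iff.2 fun g =>
          (mem_cent.1 ((index_eq_one.1 e).ge (mem_top g))).symm)))
      have k5 : (centralizer ({u} : Set G)).index = 2 := by
        rw [h3] at k2
        have := Nat.le_of_dvd (by norm_num) (Dvd.intro_left _ k2)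
        generalize (centralizer ({u} : Set G)).index = i at *
        interval_cases i <;> omega
      rw [← k5, cz, index_mul_card]
  obtain ⟨y, hy, y1⟩ : ∃ y ∈ S, y ∉ zpowers x := SetLike.not_le_iff_exists.1 fun e => by
    have := card_le_of_le e
    have := orderOf_le_of_pow_eq_one two_pos ((pow_two x).trans hx2)
    rw [Nat.card_zpowers] at *
    omega
  obtain ⟨u, hu, u1, k1, k2⟩ := key y hy (fun e => y1 (e ▸ one_mem _)) fun e => y1 (e ▸ mem_zpowers _)
  obtain ⟨v, hv, v1, k3, k4⟩ := key (x * y) (mul_mem hx hy)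
    (fun e => y1 ((mul_mem_cancel_left (mem_zpowers x)).1 (e ▸ one_mem _)))
    fun e => y1 ((mul_mem_cancel_left (mem_zpowers x)).1 (e.symm ▸ mem_zpowers x))
  obtain ⟨g, hg⟩ := isConj_iff.1 (h.dc u v (by omega))
  obtain ⟨o, ho, s, hs, rfl⟩ := h.dec g
  have k5 : s * u * s⁻¹ = v := by
    rw [← hg, mul_assoc o, mul_inv_rev, ← mul_assoc, mul_assoc o, h2 o ho _ (hN.conj_mem u hu s),
      mul_inv_cancel_right]
  have k6 : y * v = v * y := by
    rw [← k5, ← mul_assoc, ← mul_assoc, hc y hy s hs, mul_assoc s, k1, mul_assoc, mul_assoc,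
      hc y hy _ (inv_mem hs)]
    group
  exact v1 (h1 v hv (by rwa [mul_assoc, k6, ← mul_assoc, ← mul_assoc, mul_left_inj] at k3))

theorem eight' {x : G} (hx : x ∈ S) (h4 : cz x = 4) (hS : Nat.card S = 8) : False := by
  have hN := h.normal
  obtain ⟨h1, h2⟩ := h.basic hx h4
  obtain ⟨y, hy, hxy⟩ : ∃ y ∈ S, x * y ≠ y * x := by
    by_contra! e
    rw [inf_eq_left.2 fun s hs => mem_cent.2 (e s hs)] at h2
    omega
  obtain ⟨⟨z, hz⟩, z1, k1, k2, k3⟩ := eight hS (x := ⟨x, hx⟩) (y := ⟨y, hy⟩)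
    fun e => hxy (congrArg Subtype.val e)
  replace z1 : z ≠ 1 := fun e => z1 (Subtype.ext e)
  replace k1 : ∀ s ∈ S, s * z = z * s := fun s hs => congrArg Subtype.val (k1 ⟨s, hs⟩)
  replace k2 : ∀ s ∈ S, s * s = 1 ∨ s * s = z := fun s hs =>
    (k2 ⟨s, hs⟩).imp (congrArg Subtype.val) (congrArg Subtype.val)
  replace k3 : ∀ s ∈ S, ∀ t ∈ S, s * t * s⁻¹ = t ∨ s * t * s⁻¹ = t * z := fun s hs t ht =>
    (k3 ⟨s, hs⟩ ⟨t, ht⟩).imp (congrArg Subtype.val) (congrArg Subtype.val)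
  have z2 : z * z = 1 := (k2 z hz).resolve_right fun e => z1 (mul_eq_left.1 e)
  have ne : ∀ t, x * t ≠ t * x → t ≠ 1 ∧ t ≠ z := fun t e =>
    ⟨fun k => e (by simp [k]), fun k => e (k ▸ k1 x hx)⟩
  have c4 : ∀ t ∈ S, x * t ≠ t * x → Nat.card (S ⊓ centralizer {t} : Subgroup G) = 4 :=
    fun t ht e => by
      have a1 := two_lt (K := S ⊓ centralizer {t}) ⟨ht, mem_cent.2 rfl⟩ ⟨hz, mem_cent.2 (k1 t ht)⟩
        (ne t e).1 z1 (ne t e).2
      have a2 := hS ▸ card_dvd_of_le (inf_le_left : S ⊓ centralizer {t} ≤ S)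
      have a3 : Nat.card (S ⊓ centralizer {t} : Subgroup G) ≠ 8 := fun k =>
        e (mem_cent.1 ((eq_of_le_of_card_ge inf_le_left (k.trans hS.symm).ge).ge hx).2).symm
      have := Nat.le_of_dvd (by norm_num) a2
      generalize Nat.card (S ⊓ centralizer {t} : Subgroup G) = i at *
      interval_cases i <;> omega
  have nz : ∀ t ∈ S, ∀ a ∈ O ⊓ centralizer {z}, t * a * t⁻¹ ∈ O ⊓ centralizer {z} :=
    fun t ht a ha => mem_inf.2 ⟨hN.conj_mem a ha.1 t, mul_mem (mul_mem (mem_cent.2 (k1 t ht).symm)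
      ha.2) (inv_mem (mem_cent.2 (k1 t ht).symm))⟩
  have sz : ∀ t ∈ S, ∀ a ∈ O ⊓ centralizer {z}, t * t * a = a * (t * t) := fun t ht a ha => by
    rcases k2 t ht with e | e <;> rw [e]
    · simp
    · exact mem_cent.1 ha.2
  have iz : ∀ t ∈ S, x * t ≠ t * x → ∀ a ∈ O ⊓ centralizer {z}, t * a * t⁻¹ = a⁻¹ := fun t ht e =>
    inverts (nz t ht) (sz t ht) fun b hb k => by
      have hp := orderOf_pos b
      obtain ⟨g, g1, g2⟩ := h.dc.rat.mix k (h.cop hb.1 ht) (k := orderOf b - 1)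
        ((Nat.coprime_self_sub_left hp).2 (Nat.coprime_one_left _))
      rw [pow_sub _ hp, pow_orderOf_eq_one, one_mul, pow_one] at g2
      refine eq_one_of_real (C := centralizer {t}) (S := S ⊓ centralizer {t}) ?_
        (h.odd.of_dvd_nat (orderOf_dvd_natCard _ hb.1)) (mem_cent.2 g1.symm) g2 fun s hs => ?_
      · have a1 := ((S ⊓ centralizer {t}).subgroupOf (centralizer {t})).index_mul_card
        rw [Nat.card_congr (subgroupOfEquivOfLe inf_le_right).toEquiv] at a1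
        rw [relIndex, Nat.eq_of_mul_eq_mul_right Nat.card_pos (a1.trans (h.cz_eq ht))]
        exact h.odd.of_dvd_nat (card_dvd_of_le inf_le_left)
      · have a1 := two_lt (K := S ⊓ centralizer {t} ⊓ centralizer {b})
          ⟨⟨ht, mem_cent.2 rfl⟩, mem_cent.2 k.symm⟩
          ⟨⟨hz, mem_cent.2 (k1 t ht)⟩, mem_cent.2 (mem_cent.1 hb.2).symm⟩ (ne t e).1 z1 (ne t e).2
        have a2 := c4 t ht e ▸ card_dvd_of_le
          (inf_le_left : S ⊓ centralizer {t} ⊓ centralizer {b} ≤ _)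
        have a3 : 4 ≤ Nat.card (S ⊓ centralizer {t} ⊓ centralizer {b} : Subgroup G) := by
          generalize Nat.card (S ⊓ centralizer {t} ⊓ centralizer {b} : Subgroup G) = i at *
          by_contra! a3
          interval_cases i
          omega
        exact (mem_cent.1 ((eq_of_le_of_card_ge inf_le_left (c4 t ht e ▸ a3)).ge hs).2).symm
  have hxy' : x * (x * y) ≠ x * y * x := fun e => hxy (by rwa [mul_assoc, mul_right_inj] at e)
  have oz : ∀ a ∈ O, z * a = a * z → a = 1 := fun a ha e => by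
    have a0 : a ∈ O ⊓ centralizer {z} := ⟨ha, mem_cent.2 e⟩
    have a1 := iz _ (mul_mem hx hy) hxy' a a0
    rw [mul_inv_rev, mul_assoc x, mul_assoc x, ← mul_assoc (y * a), iz y hy hxy a a0, ← mul_assoc,
      inverts (nz x hx) (sz x hx) (fun b hb => h1 b hb.1) _ (inv_mem a0), inv_inv] at a1
    exact h.sq ha a1
  have izO := inverts (fun a ha => hN.conj_mem a ha z) (by simp [z2]) oz
  have x2 : x * x = z := (k2 x hx).resolve_left fun e => h.not_bot z1 k1 (eq_bot_iff.2 fun a ha => by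
    have a1 := inverts (fun a ha => hN.conj_mem a ha x) (by simp [e]) h1
    have a2 := (k3 y hy x hx).resolve_left fun k => hxy (mul_inv_eq_iff_eq_mul.1 k).symm
    have a3 := congrArg (fun g => y * g * y⁻¹) (a1 _ (hN.conj_mem a ha y⁻¹))
    refine h.sq ha ?_
    calc a = x * z * a * (x * z)⁻¹ := by
          rw [mul_inv_rev, mul_assoc x, mul_assoc x, ← mul_assoc (z * a), izO a ha, ← mul_assoc,
            a1 _ (inv_mem ha), inv_inv]
      _ = y * (x * (y⁻¹ * a * y⁻¹⁻¹) * x⁻¹) * y⁻¹ := by rw [← a2]; group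
      _ = a⁻¹ := by rw [a3]; group)
  have oz' : O ⊓ centralizer {z} = ⊥ := eq_bot_iff.2 fun a ha => oz a ha.1 (mem_cent.1 ha.2)
  have sq : ∀ t ∈ S, x * t ≠ t * x →
      Nat.card O = Nat.card (O ⊓ centralizer {t} : Subgroup G) ^ 2 := fun t ht e => by
    have t2 : t * t = 1 := (k2 t ht).resolve_right fun k => by
      have a1 : O ⊓ centralizer {t} = ⊥ := eq_bot_iff.2 fun a ha => oz a ha.1 (by
        rw [← k, mul_assoc, mem_cent.1 ha.2, ← mul_assoc, mem_cent.1 ha.2, mul_assoc])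
      obtain ⟨s, hs, a2⟩ := h.conj hx ht (h.dc _ _ (by rw [h.cz_eq ht, a1, c4 t ht e, card_bot, h4]))
      rcases k3 s hs x hx with a3 | a3 <;> rw [← a2, a3] at e
      · exact e rfl
      · exact e (by rw [mul_assoc, k1 x hx])
    have a1 := GW.LiftB.brauer_wielandt h.odd (z := t) (w := z)
      ⟨t2, z2, (k1 t ht).symm, (ne t e).1, z1, (ne t e).2⟩ (le_normalizer_of_normal (mem_top t))
      (le_normalizer_of_normal (mem_top z))
    have a2 := cz_conj x t
    have a3 := (k3 x hx t ht).resolve_left fun k => e (mul_inv_eq_iff_eq_mul.1 k)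
    rw [a3, h.cz_eq ht, h.cz_eq (mul_mem ht hz), c4 t ht e, c4 _ (mul_mem ht hz) fun k => e (by
      rwa [← mul_assoc, mul_assoc t, ← k1 x hx, ← mul_assoc, mul_left_inj] at k)] at a2
    rw [inf_right_comm] at a1
    simp only [oz', bot_inf_eq, card_bot, Nat.eq_of_mul_eq_mul_right four_pos a2] at a1
    linarith
  obtain ⟨s, hs, e⟩ := h.conj hy (mul_mem hx hy) (h.dc _ _ (by
    rw [h.cz_eq hy, h.cz_eq (mul_mem hx hy), c4 y hy hxy, c4 _ (mul_mem hx hy) hxy',
      Nat.pow_left_injective two_ne_zero ((sq y hy hxy).symm.trans (sq _ (mul_mem hx hy) hxy'))]))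
  rcases k3 s hs y hy with k | k <;> rw [k] at e
  · exact hxy (by rw [right_eq_mul.1 e]; simp)
  · rw [k1 y hy, mul_left_inj] at e
    exact hxy (e ▸ (k1 y hy).symm)

end Sp

end FourA

theorem wFourA : WFourA.{u} := by
  intro _ G _ _ h S x hx h4 hS hO
  have k : FourA.Sp (pPrimeCore 2 G) S := ⟨h, inferInstance,
    Nat.coprime_two_right.1 (Solv.coprime_card_pPrimeCore 2 G), S.isPGroup', hO⟩
  exact hS.elim (k.four hx h4) (k.eight' hx h4)

end Cfsg.Lib.DCS
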