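import Cfsg.Agent.DCS.Defs
import Cfsg.Agent.Trans.SylowIn
import Cfsg.Agent.Solv.CoprimeGen
import Cfsg.Agent.Solv.Cores
import Cfsg.Prelude.Def_CaseTheorems

/-! Tower DCS: a centralizer of order four, the case of the symmetric group of degree four. -/

set_option autoImplicit false

namespace Cfsg.Lib.DCS

open Subgroup Cfsg.Lib.Trans

universe u

namespace FourB

variable {G : Type*} [Group G] [Finite G]

theorem inverts {A : Subgroup G} {a : G} (h1 : ∀ b ∈ A, a * b * a⁻¹ ∈ A)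
    (h2 : ∀ b ∈ A, a * a * b = b * (a * a)) (h3 : ∀ b ∈ A, a * b = b * a → b = 1) :
    ∀ b ∈ A, a * b * a⁻¹ = b⁻¹ := fun b hb => by
  let f : A → A := fun c => ⟨c.1⁻¹ * (a * c * a⁻¹), mul_mem (inv_mem c.2) (h1 c c.2)⟩
  obtain ⟨c, e⟩ := Finite.injective_iff_surjective.1 (show Function.Injective f from fun c d e => by
    have e : c.1⁻¹ * (a * c * a⁻¹) = d.1⁻¹ * (a * d * a⁻¹) := congrArg Subtype.val e
    refine Subtype.ext (mul_inv_eq_one.1 (h3 _ (mul_mem d.2 (inv_mem c.2)) ?_)).symm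
    calc a * (d.1 * c.1⁻¹) = d.1 * (d.1⁻¹ * (a * d * a⁻¹)) * (a * c.1⁻¹) := by group
      _ = _ := by rw [← e]; group) ⟨b, hb⟩
  obtain rfl : c.1⁻¹ * (a * c * a⁻¹) = b := congrArg Subtype.val e
  calc _ = a * c.1⁻¹ * a⁻¹ * (a * a * c) * a⁻¹ * a⁻¹ := by group
    _ = _ := by rw [h2 c c.2]; group

theorem comm_of_odd {o b : G} (ho : Odd (orderOf o)) (h : o * b * o⁻¹ = b⁻¹) : b⁻¹ = b := by
  obtain ⟨j, hj⟩ := ho
  have a : Commute (o * o) b := mul_inv_eq_iff_eq_mul.1 (by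
    rw [mul_inv_rev, mul_assoc o o, ← mul_assoc, mul_assoc o, h, ← conj_inv, h, inv_inv])
  have e := pow_orderOf_eq_one o
  rw [hj, pow_succ, pow_mul, pow_two, mul_eq_one_iff_inv_eq] at e
  rw [← h, ← e, (a.pow_left j).inv_left.eq, mul_inv_cancel_right]

end FourB

open FourB in
theorem wFourB : WFourB.{u} := by
  intro _ G _ _ dc S x xS cx cS Q QS K4 nN iN CN
  set O := pPrimeCore 2 G
  have oO : ∀ o ∈ O, Odd (orderOf o) := fun o ho => Nat.coprime_two_right.1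
    ((Solv.coprime_card_pPrimeCore 2 G).coprime_dvd_left (O.orderOf_dvd_natCard ho))
  have o8 : ∀ s ∈ (S : Subgroup G), orderOf s ∣ 2 ^ 3 := fun s hs =>
    ((S : Subgroup G).orderOf_dvd_natCard hs).trans cS.dvd
  have SO : ∀ o ∈ O, o ∈ (S : Subgroup G) → o = 1 := fun o ho hs => orderOf_eq_one_iff.1
    (Nat.Coprime.eq_one_of_dvd ((Nat.coprime_two_right.2 (oO o ho)).pow_right 3) (o8 o hs))
  have sq : ∀ q ∈ Q, q * q = 1 := fun q hq => congrArg Subtype.val (IsKleinFour.mul_self (⟨q, hq⟩ : Q))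
  haveI := IsKleinFour.isMulCommutative (G := Q)
  have cm : ∀ a ∈ Q, ∀ b ∈ Q, a * b = b * a := fun a ha b hb =>
    congrArg Subtype.val (mul_comm' (⟨a, ha⟩ : Q) ⟨b, hb⟩)
  have i2 : ∀ a ∈ (S : Subgroup G), ∀ b ∈ (S : Subgroup G), a * b ∈ Q ↔ (a ∈ Q ↔ b ∈ Q) :=
    fun a ha b hb => mul_mem_iff_of_index_two (H := Q.subgroupOf S) (a := ⟨a, ha⟩) (b := ⟨b, hb⟩) (by
      have := card_mul_relIndex QS
      rw [IsKleinFour.card_four, show Nat.card (S : Subgroup G) = 8 from cS] at this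
      exact (by omega : Q.relIndex S = 2))
  have nQ : ∀ s ∈ (S : Subgroup G), s ∈ normalizer (Q : Set G) := fun s hs =>
    mem_normalizer_of_cj_le (cj_le_iff.2 fun q hq => by
      rw [i2 _ (mul_mem hs (QS hq)) _ (inv_mem hs), i2 _ hs _ (QS hq), inv_mem_iff]; tauto)
  have dec : ∀ c ∈ O ⊔ Q, ∃ o ∈ O, ∃ q ∈ Q, o * q = c := fun c hc => mem_sup_of_normal_left.1 hc
  have SN : ∀ s ∈ (S : Subgroup G), s ∈ O ⊔ Q → s ∈ Q := fun s hs hn => by
    obtain ⟨o, ho, q, hq, rfl⟩ := dec s hn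
    rwa [SO o ho ((mul_mem_cancel_right (QS hq)).1 hs), one_mul]
  have fr : ∀ g, ∃ o ∈ O, ∃ m ∈ normalizer (Q : Set G), g = o * m := fun g => by
    have := isSylowIn_inf_of_normal S (O ⊔ Q)
    rw [show (S : Subgroup G) ⊓ (O ⊔ Q) = Q from le_antisymm (fun s hs => SN s hs.1 hs.2)
      (le_inf QS le_sup_right)] at this
    obtain ⟨k, hk, m, hm, rfl⟩ := this.frattini (g := g) (by rw [normalizer_eq_top]; trivial)
    obtain ⟨o, ho, q, hq, rfl⟩ := dec k hk
    exact ⟨o, ho, _, mul_mem (le_normalizer hq) hm, mul_assoc ..⟩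
  have str : ∀ y ∈ (S : Subgroup G), y ∉ Q → ∃ z ∈ Q, ∃ w ∈ Q, z ≠ 1 ∧ w ≠ 1 ∧ z ≠ w ∧
      y * z * y⁻¹ = z ∧ y * w * y⁻¹ = w * z := fun y hy hn => by
    obtain ⟨w, hw, e⟩ : ∃ w ∈ Q, w * y ≠ y * w := by
      by_contra! a
      exact hn (SN y hy (CN a))
    have m := mem_normalizer_conj (nQ y hy) hw
    refine ⟨_, mul_mem hw m, w, hw, fun a => e ?_, fun a => e (by simp [a]), fun a => e ?_, ?_, ?_⟩
    · rw [← sq w hw, mul_right_inj, mul_inv_eq_iff_eq_mul] at a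
      exact a.symm
    · rw [mul_eq_left, conj_eq_one_iff] at a
      simp [a]
    · rw [← conj_mul, cm w hw _ m, mul_right_inj]
      calc _ = y * y * w * (y * y)⁻¹ := by group
        _ = w := by rw [cm _ ((i2 y hy y hy).2 Iff.rfl) w hw, mul_inv_cancel_right]
    · rw [← mul_assoc, sq w hw, one_mul]
  have all : ∀ z ∈ Q, ∀ w ∈ Q, z ≠ 1 → w ≠ 1 → z ≠ w → ∀ q ∈ Q,
      q = 1 ∨ q = z ∨ q = w ∨ q = w * z := fun z hz w hw z1 w1 zw q hq => by
    by_contra! a
    exact a.2.2.2 (congrArg Subtype.val (IsKleinFour.eq_mul_of_ne_all (x := (⟨w, hw⟩ : Q))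
      (y := ⟨z, hz⟩) (z := ⟨q, hq⟩) (by simpa) (by simpa) (by simpa using zw.symm)
      (by simpa using a.1) (by simpa using a.2.2.1) (by simpa using a.2.1)))
  have act : ∀ z ∈ Q, ∀ w ∈ Q, z ≠ 1 → w ≠ 1 → z ≠ w → ∀ y, y * z * y⁻¹ = z →
      y * w * y⁻¹ = w * z → ∀ m ∈ normalizer (Q : Set G), m * z * m⁻¹ = z →
      m * y ∈ O ⊔ Q ∨ m ∈ O ⊔ Q := fun z hz w hw z1 w1 zw y yz yw m hm mz => by
    have c : ∀ m, m * z * m⁻¹ = z → m * w * m⁻¹ = w → m ∈ O ⊔ Q := fun m a b => CN fun q hq => by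
      rw [mul_inv_eq_iff_eq_mul] at a b
      rcases all z hz w hw z1 w1 zw q hq with rfl | rfl | rfl | rfl
      exacts [by simp, a.symm, b.symm, (Commute.mul_right b a).symm]
    rcases all z hz w hw z1 w1 zw _ (mem_normalizer_conj hm hw) with e | e | e | e
    · exact (w1 (conj_eq_one_iff.1 e)).elim
    · exact (zw (by simpa using mz.trans e.symm)).elim
    · exact Or.inr (c m mz e)
    · refine Or.inl (c _ ?_ ?_) <;> rw [mul_inv_rev, mul_assoc m y, ← mul_assoc, mul_assoc m]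
      · rw [yz, mz]
      · rw [yw, ← conj_mul, e, mz, mul_assoc, sq z hz, mul_one]
  have cj1 : ∀ z ∈ Q, ∀ w ∈ Q, z ≠ 1 → w ≠ 1 → z ≠ w → ∀ y, y * z * y⁻¹ = z →
      y * w * y⁻¹ = w * z → ∀ q ∈ Q, q ≠ 1 → ∃ g, g * z * g⁻¹ = q :=
    fun z hz w hw z1 w1 zw y yz yw q hq q1 => by
      obtain ⟨g, e⟩ : ∃ g, g * z * g⁻¹ = w := by
        have := mt (index_dvd_two_iff (H := O ⊔ Q)).2 (by rw [iN]; decide)
        push Not at this
        obtain ⟨b, b1, b2⟩ := this y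
        obtain ⟨o, ho, m, hm, rfl⟩ := fr b
        rw [mul_assoc] at b1
        rw [mul_mem_cancel_left (mem_sup_left ho)] at b1 b2
        rcases all z hz w hw z1 w1 zw _ (mem_normalizer_conj hm hz) with e | e | e | e
        · exact (z1 (conj_eq_one_iff.1 e)).elim
        · exact ((act z hz w hw z1 w1 zw y yz yw m hm e).elim b1 b2).elim
        · exact ⟨m, e⟩
        · exact ⟨y⁻¹ * m, by rw [mul_inv_rev, mul_assoc y⁻¹, ← mul_assoc, mul_assoc y⁻¹, e, ← yw]; group⟩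
      rcases all z hz w hw z1 w1 zw q hq with rfl | rfl | rfl | rfl
      exacts [(q1 rfl).elim, ⟨1, by simp⟩, ⟨g, e⟩,
        ⟨y * g, by rw [mul_inv_rev, mul_assoc y, ← mul_assoc, mul_assoc y, e, yw]⟩]
  have xQ : x ∉ Q := fun hx => by
    obtain ⟨y, hy, hn⟩ : ∃ y ∈ (S : Subgroup G), y ∉ Q := by
      by_contra! a
      have := Subgroup.card_le_of_le a
      rw [IsKleinFour.card_four (G := Q), show Nat.card (S : Subgroup G) = 8 from cS] at this
      omega
    obtain ⟨z, hz, w, hw, z1, w1, zw, yz, yw⟩ := str y hy hn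
    have : 8 ∣ cz x := by
      rw [← cS]
      by_cases e : x = 1
      · rw [e, cz_one]; exact card_subgroup_dvd_card _
      · obtain ⟨g, rfl⟩ := cj1 z hz w hw z1 w1 zw y yz yw x hx e
        rw [cz_conj]
        refine card_dvd_of_le (H := (S : Subgroup G)) fun s hs => mem_cent.2 ?_
        by_cases a : s ∈ Q
        · exact cm z hz s a
        · have := cm z hz _ ((i2 s hs y hy).2 (iff_of_false a hn))
          rwa [mul_assoc s, mul_inv_eq_iff_eq_mul.1 yz, ← mul_assoc, ← mul_assoc,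
            mul_left_inj] at this
    rw [cx] at this
    omega
  obtain ⟨z, hz, w, hw, z1, w1, zw, xz, xw⟩ := str x xS xQ
  have fixQ : ∀ y, y * z * y⁻¹ = z → y * w * y⁻¹ = w * z → ∀ q ∈ Q, y * q * y⁻¹ = q →
      q = 1 ∨ q = z := fun y yz yw q hq e => by
    rcases all z hz w hw z1 w1 zw q hq with a | a | rfl | rfl
    exacts [Or.inl a, Or.inr a, (z1 (by simpa [yw] using e)).elim,
      (z1 (by rwa [← conj_mul, yw, yz, mul_eq_left] at e)).elim]
  obtain ⟨y, hy⟩ : ∃ y, y = x * w := ⟨_, rfl⟩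
  have yS : y ∈ (S : Subgroup G) := hy ▸ mul_mem xS (QS hw)
  have yQ : y ∉ Q := by rwa [hy, mul_mem_cancel_right hw]
  have yq : ∀ q ∈ Q, y * q * y⁻¹ = x * q * x⁻¹ := fun q hq => by
    rw [hy, mul_inv_rev, mul_assoc x w, cm w hw q hq]; group
  have yz := (yq z hz).trans xz
  have yw := (yq w hw).trans xw
  have nO : ∀ g, ∀ o ∈ O, g * o * g⁻¹ ∈ O := fun g o ho => Normal.conj_mem inferInstance o ho g
  have cN : ∀ c ∈ O ⊔ Q, y * c = c * y → ∃ o ∈ O, y * o = o * y ∧ (c = o ∨ c = o * z) :=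
    fun c hc e => by
      obtain ⟨o, ho, q, hq, rfl⟩ := dec c hc
      have a : o⁻¹ * (y * o * y⁻¹) = q * (y * q * y⁻¹)⁻¹ := by
        calc _ = o⁻¹ * (y * (o * q)) * q⁻¹ * y⁻¹ := by group
          _ = _ := by rw [e]; group
      have b := SO _ (mul_mem (inv_mem ho) (nO y o ho)) (a ▸ mul_mem (QS hq)
        (inv_mem (mul_mem (mul_mem yS (QS hq)) (inv_mem yS))))
      refine ⟨o, ho, mul_inv_eq_iff_eq_mul.1 (inv_mul_eq_one.1 b).symm, ?_⟩
      rcases fixQ y yz yw q hq (mul_inv_eq_one.1 (a.symm.trans b)).symm with rfl | rfl <;> simp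
  have cY : ∀ c, y * c = c * y → ∃ o ∈ O, y * o = o * y ∧
      (c = o ∨ c = o * z ∨ c = o * y⁻¹ ∨ c = o * (z * y⁻¹)) := fun c e => by
    have : c * y ∈ O ⊔ Q ∨ c ∈ O ⊔ Q := by
      obtain ⟨o, ho, m, hm, f⟩ := fr c
      have k : m⁻¹ * y * m * y⁻¹ ∈ O := by
        have := nO c⁻¹ _ (mul_mem ho (inv_mem (nO y o ho)))
        rw [inv_inv, mul_assoc, mul_assoc o, mul_inv_rev, mul_inv_rev, inv_inv, mul_assoc, mul_assoc,
          (Commute.inv_left e).eq, f] at this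
        convert this using 1; group
      have k' := mul_mem (mul_mem (mul_mem (inv_mem hm) (nQ y yS)) hm) (inv_mem (nQ y yS))
      have a := SO _ (by rw [mul_assoc, mul_assoc]; exact mul_mem k (by
        simpa [mul_assoc] using nO z _ (inv_mem k))) (QS (mul_mem (mem_normalizer_conj k' hz)
        (inv_mem hz)))
      rw [mul_inv_eq_one] at a
      have b : y * (m * z * m⁻¹) * y⁻¹ = m * z * m⁻¹ := by
        conv_rhs => rw [← a, ← yz]
        group
      rw [f, mul_assoc, mul_mem_cancel_left (mem_sup_left ho), mul_mem_cancel_left (mem_sup_left ho)]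
      exact act z hz w hw z1 w1 zw y yz yw m hm ((fixQ y yz yw _ (mem_normalizer_conj hm hz)
        b).resolve_left fun a => z1 (conj_eq_one_iff.1 a))
    rcases this with a | a
    · obtain ⟨o, ho, b, f | f⟩ := cN _ a (by rw [← mul_assoc, e])
      · exact ⟨o, ho, b, Or.inr (Or.inr (Or.inl (eq_mul_inv_of_mul_eq f)))⟩
      · exact ⟨o, ho, b, Or.inr (Or.inr (Or.inr (by rw [← mul_assoc, ← f, mul_inv_cancel_right])))⟩
    · obtain ⟨o, ho, b, f⟩ := cN _ a e
      exact ⟨o, ho, b, f.imp_right Or.inl⟩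
  have inv : ∀ a ∈ (S : Subgroup G), a * z * a⁻¹ = z → a * w * a⁻¹ = w * z →
      (∀ b ∈ O ⊓ centralizer {z}, a * b = b * a → b = 1) →
      ∀ b ∈ O ⊓ centralizer {z}, a * b * a⁻¹ = b⁻¹ := fun a ha az aw =>
    inverts (fun b hb => ⟨nO a b hb.1, mem_cent.2 (by
      conv_lhs => rw [← az, conj_mul, mem_cent.1 hb.2, ← conj_mul, az])⟩) fun b hb => by
      rcases fixQ a az aw _ ((i2 a ha a ha).2 Iff.rfl) (by group) with e | e <;> rw [e]
      exacts [by simp, mem_cent.1 hb.2]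
  have fy : ∀ b ∈ O ⊓ centralizer {z}, y * b = b * y → b = 1 := fun b hb e => by
    have hp := orderOf_pos b
    obtain ⟨c, c1, c2⟩ := dc.rat.mix e (Nat.Coprime.coprime_dvd_left (o8 y yS)
      ((Nat.coprime_two_left.2 (oO b hb.1)).pow_left 3)) (k := orderOf b - 1) (by
        rw [show orderOf b = orderOf b - 1 + 1 by omega]; simp)
    rw [show b ^ (orderOf b - 1) = b⁻¹ by rw [eq_inv_iff_mul_eq_one, ← pow_succ,
      Nat.sub_add_cancel hp, pow_orderOf_eq_one]] at c2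
    obtain ⟨o, ho, -, f⟩ := cY c c1.symm
    have a : ∀ u, Commute u b → o * u * b * (o * u)⁻¹ = o * b * o⁻¹ := fun u a => by
      rw [mul_assoc o, a.eq]; group
    have zb : Commute z b := mem_cent.1 hb.2
    have : o * b * o⁻¹ = b⁻¹ := by
      rcases f with rfl | rfl | rfl | rfl
      exacts [c2, (a _ zb).symm.trans c2, (a _ (Commute.inv_left e)).symm.trans c2,
        (a _ (zb.mul_left (Commute.inv_left e))).symm.trans c2]
    refine orderOf_eq_one_iff.1 (Nat.Coprime.eq_one_of_dvd (Nat.coprime_two_right.2 (oO b hb.1))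
      (orderOf_dvd_of_pow_eq_one ?_))
    rw [pow_two, mul_eq_one_iff_inv_eq, comm_of_odd (oO o ho) this]
  have wA : ∀ b ∈ O ⊓ centralizer {z}, w * b = b * w := fun b hb => by
    have a := (inv y yS yz yw fy b hb).trans (inv x xS xz xw (fun b hb e => orderOf_eq_one_iff.1
      (Nat.Coprime.eq_one_of_dvd ((Nat.coprime_two_right.2 (oO b hb.1)).pow_right 2)
        ((orderOf_dvd_cz e).trans cx.dvd))) b hb).symm
    rwa [hy, mul_inv_rev, ← mul_assoc, mul_left_inj, mul_assoc x, mul_assoc x, mul_right_inj,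
      mul_inv_eq_iff_eq_mul] at a
  have Oz : O ≤ centralizer {z} := Solv.Coprime.le_of_forall_centralizer_singleton (A := Q)
    (IsKleinFour.not_isCyclic) (by rw [normalizer_eq_top]; exact le_top)
    (by rw [IsKleinFour.card_four]; exact ((Solv.coprime_card_pPrimeCore 2 G).pow_right 2).symm)
    fun q hq q1 => by
      obtain ⟨g, e⟩ := cj1 z hz w hw z1 w1 zw x xz xw q hq q1
      refine (eq_of_le_of_card_ge (H := O ⊓ centralizer {z}) (K := O ⊓ centralizer {q}) (fun b hb => ⟨hb.1, mem_cent.2 ?_⟩)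
        ?_).ge.trans inf_le_right
      · rcases all z hz w hw z1 w1 zw q hq with rfl | rfl | rfl | rfl
        exacts [by simp, mem_cent.1 hb.2, wA b hb, Commute.mul_left (wA b hb) (mem_cent.1 hb.2)]
      · rw [← card_cj g (O ⊓ centralizer {z})]
        refine Subgroup.card_le_of_le (K := cj g (O ⊓ centralizer {z})) fun b hb =>
          mem_cj.2 (mem_inf.2 ⟨by simpa using nO g⁻¹ b hb.1, mem_cent.2 ?_⟩)
        calc z * (g⁻¹ * b * g) = g⁻¹ * (g * z * g⁻¹ * b) * g := by group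
          _ = _ := by rw [e, mem_cent.1 hb.2, ← e]; group
  have cy : cz y = 4 := by
    have : (centralizer {y} : Set G) = {1, z, y⁻¹, z * y⁻¹} := by
      ext c
      refine ⟨fun hc => ?_, ?_⟩
      · obtain ⟨o, ho, a, f⟩ := cY c (mem_cent.1 hc)
        simpa [fy o ⟨ho, Oz ho⟩ a] using f
      · have a : z ∈ centralizer {y} := mem_cent.2 (mul_inv_eq_iff_eq_mul.1 yz)
        have b : y⁻¹ ∈ centralizer {y} := mem_cent.2 (by simp)
        rintro (rfl | rfl | rfl | rfl)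
        exacts [one_mem _, a, b, mul_mem a b]
    have a : ∀ q ∈ Q, q ≠ y⁻¹ ∧ q ≠ z * y⁻¹ := fun q hq =>
      ⟨fun e => yQ (inv_mem_iff.1 (e ▸ hq)), fun e => yQ (inv_mem_iff.1
        ((mul_mem_cancel_left hz).1 (e ▸ hq)))⟩
    change Set.ncard (centralizer {y} : Set G) = 4
    rw [this, Set.ncard_insert_of_notMem (by simp [z1.symm, a 1 (one_mem Q)]),
      Set.ncard_insert_of_notMem (by simp [a z hz]), Set.ncard_pair (by simpa using z1)]
  obtain ⟨g, e⟩ := isConj_iff.1 (dc x y (cx.trans cy.symm))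
  have y2 : y * y = x * x * z := by
    calc y * y = x * (w * (x * w * x⁻¹)) * x := by rw [hy]; group
      _ = _ := by rw [xw, ← mul_assoc w, sq w hw, one_mul, mul_assoc, ← mul_inv_eq_iff_eq_mul.1 xz,
        mul_assoc]
  have e2 : g * (x * x) * g⁻¹ = x * x * z := by rw [← conj_mul, e, y2]
  rcases fixQ x xz xw _ ((i2 x xS x xS).2 Iff.rfl) (by group) with a | a <;> rw [a] at e2
  · exact z1 (by simpa using e2.symm)
  · exact z1 (by rwa [sq z hz, conj_eq_one_iff] at e2)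

end Cfsg.Lib.DCS
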